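import Mathlib
import Cfsg.Prelude.Def_OddOrderLocal
import Cfsg.Statements.S1403
import Cfsg.Statements.S1404
import Cfsg.Statements.S1405
import Cfsg.Statements.S1407
import Cfsg.Statements.S1408
import Cfsg.Statements.S1409
import Cfsg.Statements.S1411
import Cfsg.Statements.S1414
import Cfsg.Statements.S1416
import Cfsg.Statements.S1417
import Cfsg.Statements.S1418
import Cfsg.Statements.S1420
import Cfsg.Statements.S1422
import Cfsg.Statements.S1423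
import Cfsg.Statements.S1424
import Cfsg.Agent.Lib.Helper46.Amalgam

/-!
# S1428 (Bender–Glauberman Theorem 13.4): package statements

Team project led by helper95.  Paper proof: notes 1956 and 1957 (topic `S1428`).
Each `Lem…` below is the exact statement of one package; a package is a theorem
`… : Cfsg.Agent.Lib.Helper95.BG28.Lem….{u}` proved in the taker's own Lib file.

`IsSylowIn p S H` (from `Helper46.Amalgam`) means
`S ≤ H ∧ Nat.card S = p ^ (Nat.card H).factorization p`.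
`Hy hG` bundles the earlier statements of the chain (for the fixed group `G`) that the proof uses.
`Cx hG M E P R p r` is a would-be counterexample to 13.4: `p ∈ τ₁(M)`, `P ≤ E` of order `p`,
`R ≤ C_E(P)` of prime order `r`, and `C_{M_σ}(P) ⊄ C(R)`.
`M_β` is `Cfsg.piCoreOf (Cfsg.beta M) M`.
-/

set_option autoImplicit false

namespace Cfsg.Agent.Lib.Helper95.BG28

open Cfsg Cfsg.Agent.Lib.Helper46

universe u

/-- The earlier statements of the Bender–Glauberman chain used in the proof of 13.4, for `G`. -/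
structure Hy {G : Type u} [Group G] [Finite G] (hG : Cfsg.IsMinSimpleOddOrder G) : Prop where
  h1403 : type_of% (@Cfsg.CfsgFrozen.S1403 G _ _ hG)
  h1404 : type_of% (@Cfsg.CfsgFrozen.S1404 G _ _ hG)
  h1405 : type_of% (@Cfsg.CfsgFrozen.S1405 G _ _ hG)
  h1407 : type_of% (@Cfsg.CfsgFrozen.S1407 G _ _ hG)
  h1408 : type_of% (@Cfsg.CfsgFrozen.S1408 G _ _ hG)
  h1409 : type_of% (@Cfsg.CfsgFrozen.S1409 G _ _ hG)
  h1411 : type_of% (@Cfsg.CfsgFrozen.S1411 G _ _ hG)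
  h1414 : type_of% (@Cfsg.CfsgFrozen.S1414 G _ _ hG)
  h1416 : type_of% (@Cfsg.CfsgFrozen.S1416 G _ _ hG)
  h1417 : type_of% (@Cfsg.CfsgFrozen.S1417 G _ _ hG)
  h1418 : type_of% (@Cfsg.CfsgFrozen.S1418 G _ _ hG)
  h1420 : type_of% (@Cfsg.CfsgFrozen.S1420 G _ _ hG)
  h1422 : type_of% (@Cfsg.CfsgFrozen.S1422 G _ _ hG)
  h1423 : type_of% (@Cfsg.CfsgFrozen.S1423 G _ _ hG)
  h1424 : type_of% (@Cfsg.CfsgFrozen.S1424 G _ _ hG)

/-- A would-be counterexample to BG 13.4. -/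
structure Cx {G : Type u} [Group G] (M E P R : Subgroup G) (p r : ℕ) : Prop where
  hM : IsCoatom M
  hE : Cfsg.IsComplIn E (Cfsg.sigmaCore M) M
  hp : p ∈ Cfsg.tau1 M
  hPE : P ≤ E
  hP : Nat.card P = p
  hRE : R ≤ E
  hRP : R ≤ Subgroup.centralizer (P : Set G)
  hR : Nat.card R = r
  hr : r.Prime
  hne : ¬ Cfsg.sigmaCore M ⊓ Subgroup.centralizer (P : Set G) ≤ Subgroup.centralizer (R : Set G)

/-! ### Pure group theory -/

/-- Package F0 (Frobenius action, fixed points).  `Q`, `R` normalize the `p`-group `T`, `R` of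
prime order `r ≠ p` normalizes `Q` with `C_Q(R) = 1`, `(|Q|, p) = 1`.  If `Q` does not centralize
`T`, some element of `C_T(R)` is not centralized by `Q`. -/
def LemF0 : Prop :=
  ∀ {G : Type u} [Group G] [Finite G] (p r : ℕ), p.Prime → r.Prime → r ≠ p →
    ∀ (T Q R : Subgroup G), IsPGroup p T → Q ≤ Subgroup.normalizer (T : Set G) →
      R ≤ Subgroup.normalizer (T : Set G) → R ≤ Subgroup.normalizer (Q : Set G) →
      Nat.card R = r → Q ⊓ Subgroup.centralizer (R : Set G) = ⊥ → (Nat.card Q).Coprime p →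
      ¬ Q ≤ Subgroup.centralizer (T : Set G) →
      ∃ u ∈ T, u ∈ Subgroup.centralizer (R : Set G) ∧ u ∉ Subgroup.centralizer (Q : Set G)

/-- Package F (Frobenius action, main lemma).  Same setting; if `C_T(R)` is cyclic and
`C_T(QR) ≠ 1`, then `Q` centralizes `T`. -/
def LemF : Prop :=
  ∀ {G : Type u} [Group G] [Finite G] (p r : ℕ), p.Prime → r.Prime → r ≠ p →
    ∀ (T Q R : Subgroup G), IsPGroup p T → Q ≤ Subgroup.normalizer (T : Set G) →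
      R ≤ Subgroup.normalizer (T : Set G) → R ≤ Subgroup.normalizer (Q : Set G) →
      Nat.card R = r → Q ⊓ Subgroup.centralizer (R : Set G) = ⊥ → (Nat.card Q).Coprime p →
      IsCyclic ↥(T ⊓ Subgroup.centralizer (R : Set G)) →
      T ⊓ Subgroup.centralizer (Q : Set G) ⊓ Subgroup.centralizer (R : Set G) ≠ ⊥ →
      Q ≤ Subgroup.centralizer (T : Set G)

/-! ### Frattini-type lemmas for `M_β` -/

/-- Package K0.  `t ∉ β(M)`, `Y` a Sylow `t`-subgroup of `M'`: then `M = M_β · N_M(Y)`. -/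
def LemK0 : Prop :=
  ∀ {G : Type u} [Group G] [Finite G] (hG : Cfsg.IsMinSimpleOddOrder G) (_hy : Hy hG)
    (M : Subgroup G) (_hM : IsCoatom M) (t : ℕ) (_ht : t.Prime) (_htβ : t ∉ Cfsg.beta M)
    (Y : Subgroup G) (_hY : IsSylowIn t Y ⁅M, M⁆),
    M = Cfsg.piCoreOf (Cfsg.beta M) M ⊔ (M ⊓ Subgroup.normalizer (Y : Set G))

/-- Package K.  `S` a Sylow `t`-subgroup of `G` with `N(S) ≤ M`, `t ∉ β(M)`: `M = M_β · N(S)`. -/
def LemK : Prop :=
  ∀ {G : Type u} [Group G] [Finite G] (hG : Cfsg.IsMinSimpleOddOrder G) (_hy : Hy hG)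
    (M : Subgroup G) (_hM : IsCoatom M) (t : ℕ) (_ht : t.Prime) (_htβ : t ∉ Cfsg.beta M)
    (S : Subgroup G) (_hS : IsSylowIn t S ⊤) (_hNS : Subgroup.normalizer (S : Set G) ≤ M),
    M = Cfsg.piCoreOf (Cfsg.beta M) M ⊔ Subgroup.normalizer (S : Set G)

/-- Package Syl.  Two maximal subgroups `M`, `L` containing `N(S)`, `S` Sylow `t` in `G`,
`t ∉ β(M) ∪ β(L)`; for a prime `u ∉ β(M) ∪ β(L)` they have a common Sylow `u`-subgroup. -/
def LemSyl : Prop :=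
  ∀ {G : Type u} [Group G] [Finite G] (hG : Cfsg.IsMinSimpleOddOrder G) (_hy : Hy hG)
    (M L : Subgroup G) (_hM : IsCoatom M) (_hL : IsCoatom L) (t : ℕ) (_ht : t.Prime)
    (_htM : t ∉ Cfsg.beta M) (_htL : t ∉ Cfsg.beta L)
    (S : Subgroup G) (_hS : IsSylowIn t S ⊤) (_hSM : Subgroup.normalizer (S : Set G) ≤ M)
    (_hSL : Subgroup.normalizer (S : Set G) ≤ L)
    (u : ℕ) (_hu : u.Prime) (_huM : u ∉ Cfsg.beta M) (_huL : u ∉ Cfsg.beta L),
    ∃ U : Subgroup G, IsSylowIn u U M ∧ IsSylowIn u U L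

/-- Package Der.  `S` Sylow `t` in `G`, `N(S) ≤ L`, `t ∉ β(L)`, `u ∉ β(L)`: if `u` divides
`|L'|` then `u` divides `|N(S)'|`. -/
def LemDer : Prop :=
  ∀ {G : Type u} [Group G] [Finite G] (hG : Cfsg.IsMinSimpleOddOrder G) (_hy : Hy hG)
    (L : Subgroup G) (_hL : IsCoatom L) (t : ℕ) (_ht : t.Prime) (_htL : t ∉ Cfsg.beta L)
    (S : Subgroup G) (_hS : IsSylowIn t S ⊤) (_hSL : Subgroup.normalizer (S : Set G) ≤ L)
    (u : ℕ) (_hu : u.Prime) (_huL : u ∉ Cfsg.beta L),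
    u ∣ Nat.card ↥⁅L, L⁆ →
      u ∣ Nat.card ↥⁅Subgroup.normalizer (S : Set G), Subgroup.normalizer (S : Set G)⁆

/-! ### Local analysis -/

/-- Package T (BG 12.15 a–c and the dichotomy).  `t ∈ σ(M)`, `X ≠ 1` a `t`-subgroup of `M`,
`L ≠ M` maximal over `N(X)`.  Then `L` is not conjugate to `M`, and either `t ∈ σ(L)` and some
Sylow `t`-subgroup `S ≥ X` of `G` has `N(S) ≤ M ∩ L` (and `t ∉ β(M) ∪ β(L)`), or `t ∈ τ₂(L)`,
`L_σ ∩ M = 1` and a complement `F` of `L_σ` in `L` containing an `E_{t²}` lies in `M`. -/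
def LemT : Prop :=
  ∀ {G : Type u} [Group G] [Finite G] (hG : Cfsg.IsMinSimpleOddOrder G) (_hy : Hy hG)
    (M L : Subgroup G) (_hM : IsCoatom M) (_hL : IsCoatom L) (_hLM : L ≠ M)
    (t : ℕ) (_ht : t ∈ Cfsg.sigma M) (X : Subgroup G) (_hXt : IsPGroup t X) (_hX1 : X ≠ ⊥)
    (_hXM : X ≤ M) (_hNX : Subgroup.normalizer (X : Set G) ≤ L),
    (∀ g : G, L ≠ M.map (MulAut.conj g).toMonoidHom) ∧
      ((t ∈ Cfsg.sigma L ∧ ∃ S : Subgroup G, X ≤ S ∧ IsSylowIn t S ⊤ ∧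
          Subgroup.normalizer (S : Set G) ≤ M ∧ Subgroup.normalizer (S : Set G) ≤ L ∧
          t ∉ Cfsg.beta M ∧ t ∉ Cfsg.beta L) ∨
        (t ∈ Cfsg.tau2 L ∧ Cfsg.sigmaCore L ⊓ M = ⊥ ∧
          ∃ B F : Subgroup G, B ≤ F ∧ Cfsg.IsElementaryAbelian t B ∧ Nat.card B = t ^ 2 ∧
            Cfsg.IsComplIn F (Cfsg.sigmaCore L) L ∧ F ≤ M))

/-- Package X (BG 13.1(a), helper52's Lemma X, for elements of order `r`).  `M`, `H` maximal and
not conjugate, `r ∉ σ(M)`, `r ∉ τ₁(H)`: every `s ∈ M ∩ H` with `s ^ r = 1` centralizes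
`M_σ ∩ H`. -/
def LemX : Prop :=
  ∀ {G : Type u} [Group G] [Finite G] (hG : Cfsg.IsMinSimpleOddOrder G) (_hy : Hy hG)
    (M H : Subgroup G) (_hM : IsCoatom M) (_hH : IsCoatom H)
    (_hnc : ∀ g : G, H ≠ M.map (MulAut.conj g).toMonoidHom)
    (r : ℕ) (_hr : r.Prime) (_hrM : r ∉ Cfsg.sigma M) (_hrH : r ∉ Cfsg.tau1 H)
    (c s : G) (_hc : c ∈ Cfsg.sigmaCore M) (_hcH : c ∈ H) (_hsM : s ∈ M) (_hsH : s ∈ H)
    (_hs : s ^ r = 1), c * s = s * c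

/-- Package B1 (BG 13.1(b) in the setting of 13.4): `p ∉ τ₂(H)` for `H` maximal over `N(P)`. -/
def LemB1 : Prop :=
  LemT.{u} → LemSyl.{u} →
  ∀ {G : Type u} [Group G] [Finite G] (hG : Cfsg.IsMinSimpleOddOrder G) (_hy : Hy hG)
    (M E P R : Subgroup G) (p r : ℕ) (_cx : Cx M E P R p r)
    (H : Subgroup G) (_hH : IsCoatom H) (_hNP : Subgroup.normalizer (P : Set G) ≤ H)
    (_hnc : ∀ g : G, H ≠ M.map (MulAut.conj g).toMonoidHom), p ∉ Cfsg.tau2 H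

/-- Package B2 (BG 13.1(c)).  `M`, `H` maximal and not conjugate, `p ∈ τ₁(M) ∩ σ(H)`, and some
prime `t ∈ σ(M)` divides `|H'|`: then `p` is an ideal prime. -/
def LemB2 : Prop :=
  LemT.{u} → LemK0.{u} → LemDer.{u} →
  ∀ {G : Type u} [Group G] [Finite G] (hG : Cfsg.IsMinSimpleOddOrder G) (_hy : Hy hG)
    (M H : Subgroup G) (_hM : IsCoatom M) (_hH : IsCoatom H)
    (_hnc : ∀ g : G, H ≠ M.map (MulAut.conj g).toMonoidHom)
    (p : ℕ) (_hp : p ∈ Cfsg.tau1 M) (_hpH : p ∈ Cfsg.sigma H)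
    (t : ℕ) (_ht : t ∈ Cfsg.sigma M) (_htH : t ∣ Nat.card ↥⁅H, H⁆), Cfsg.IsIdealPrime p G

/-- Package MA (set-up).  A counterexample yields a maximal `H ≥ N(P)`, not conjugate to `M`,
with `p ∈ σ(H)` ideal (so `p ∈ β(H)`) and `r ∈ τ₁(H)`. -/
def LemMA : Prop :=
  LemX.{u} → LemB1.{u} → LemB2.{u} → LemT.{u} → LemSyl.{u} → LemK0.{u} → LemDer.{u} →
  ∀ {G : Type u} [Group G] [Finite G] (hG : Cfsg.IsMinSimpleOddOrder G) (_hy : Hy hG)
    (M E P R : Subgroup G) (p r : ℕ) (_cx : Cx M E P R p r),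
    ∃ H : Subgroup G, IsCoatom H ∧ Subgroup.normalizer (P : Set G) ≤ H ∧
      (∀ g : G, H ≠ M.map (MulAut.conj g).toMonoidHom) ∧
      p ∈ Cfsg.sigma H ∧ Cfsg.IsIdealPrime p G ∧ r ∈ Cfsg.tau1 H

/-- Package MB (the `H`-side).  In the situation produced by MA there are a prime `t ∈ σ(M)` and
a nontrivial `R`-invariant `t`-subgroup `Q ≤ M_σ`, `Q ≤ [M_σ, R]`, `C_Q(R) = 1`, with
`C(Q) ≤ H` and `N(Q) ≤ H`. -/
def LemMB : Prop :=
  LemF.{u} →
  ∀ {G : Type u} [Group G] [Finite G] (hG : Cfsg.IsMinSimpleOddOrder G) (_hy : Hy hG)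
    (M E P R : Subgroup G) (p r : ℕ) (_cx : Cx M E P R p r)
    (H : Subgroup G) (_hH : IsCoatom H) (_hNP : Subgroup.normalizer (P : Set G) ≤ H)
    (_hnc : ∀ g : G, H ≠ M.map (MulAut.conj g).toMonoidHom)
    (_hpH : p ∈ Cfsg.sigma H) (_hid : Cfsg.IsIdealPrime p G) (_hrH : r ∈ Cfsg.tau1 H),
    ∃ (t : ℕ) (Q : Subgroup G), t ∈ Cfsg.sigma M ∧ IsPGroup t Q ∧ Q ≠ ⊥ ∧
      Q ≤ Cfsg.sigmaCore M ∧ R ≤ Subgroup.normalizer (Q : Set G) ∧
      Q ⊓ Subgroup.centralizer (R : Set G) = ⊥ ∧ Q ≤ ⁅Cfsg.sigmaCore M, R⁆ ∧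
      Subgroup.centralizer (Q : Set G) ≤ H ∧ Subgroup.normalizer (Q : Set G) ≤ H

/-- Package MC (the `M`-side).  From the data of MA and MB: `r ∈ τ₁(M)`, `[M_σ, P] ≤ M_β`,
`C_{M_σ}(R) ⊄ C(P)` and `[M_σ, R] ⊄ M_β`. -/
def LemMC : Prop :=
  LemT.{u} → LemK.{u} → LemSyl.{u} → LemDer.{u} → LemF0.{u} →
  ∀ {G : Type u} [Group G] [Finite G] (hG : Cfsg.IsMinSimpleOddOrder G) (_hy : Hy hG)
    (M E P R : Subgroup G) (p r : ℕ) (_cx : Cx M E P R p r)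
    (H : Subgroup G) (_hH : IsCoatom H) (_hNP : Subgroup.normalizer (P : Set G) ≤ H)
    (_hnc : ∀ g : G, H ≠ M.map (MulAut.conj g).toMonoidHom)
    (_hpH : p ∈ Cfsg.sigma H) (_hid : Cfsg.IsIdealPrime p G) (_hrH : r ∈ Cfsg.tau1 H)
    (t : ℕ) (Q : Subgroup G) (_htM : t ∈ Cfsg.sigma M) (_hQt : IsPGroup t Q) (_hQ1 : Q ≠ ⊥)
    (_hQM : Q ≤ Cfsg.sigmaCore M) (_hRQ : R ≤ Subgroup.normalizer (Q : Set G))
    (_hfpf : Q ⊓ Subgroup.centralizer (R : Set G) = ⊥) (_hQc : Q ≤ ⁅Cfsg.sigmaCore M, R⁆)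
    (_hCQ : Subgroup.centralizer (Q : Set G) ≤ H) (_hNQ : Subgroup.normalizer (Q : Set G) ≤ H),
    r ∈ Cfsg.tau1 M ∧ ⁅Cfsg.sigmaCore M, P⁆ ≤ Cfsg.piCoreOf (Cfsg.beta M) M ∧
      ¬ Cfsg.sigmaCore M ⊓ Subgroup.centralizer (R : Set G) ≤ Subgroup.centralizer (P : Set G) ∧
      ¬ ⁅Cfsg.sigmaCore M, R⁆ ≤ Cfsg.piCoreOf (Cfsg.beta M) M

end Cfsg.Agent.Lib.Helper95.BG28
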