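import Mathlib
import Cfsg.Agent.Lib.Helper95.BG.S1428Defs

/-!
# S1428 (Bender–Glauberman Theorem 13.4): assembly from the packages

`LemPi` is the statement "a counterexample `(P, R)` has `r ∈ τ₁(M)`, `[M_σ, P] ≤ M_β`,
`C_{M_σ}(R) ⊄ C(P)`, `[M_σ, R] ⊄ M_β`"; applying it to `(P, R)` and then to `(R, P)` gives a
contradiction.
-/

set_option autoImplicit false

namespace Cfsg.Agent.Lib.Helper95.BG28

open Cfsg Cfsg.Agent.Lib.Helper46

universe u

/-- The conclusion of the analysis of one counterexample. -/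
def LemPi : Prop :=
  ∀ {G : Type u} [Group G] [Finite G] (hG : Cfsg.IsMinSimpleOddOrder G) (_hy : Hy hG)
    (M E P R : Subgroup G) (p r : ℕ) (_cx : Cx M E P R p r),
    r ∈ Cfsg.tau1 M ∧ ⁅Cfsg.sigmaCore M, P⁆ ≤ Cfsg.piCoreOf (Cfsg.beta M) M ∧
      ¬ Cfsg.sigmaCore M ⊓ Subgroup.centralizer (R : Set G) ≤ Subgroup.centralizer (P : Set G) ∧
      ¬ ⁅Cfsg.sigmaCore M, R⁆ ≤ Cfsg.piCoreOf (Cfsg.beta M) M

theorem lemPi_of (hF0 : LemF0.{u}) (hF : LemF.{u}) (hK0 : LemK0.{u}) (hK : LemK.{u})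
    (hSyl : LemSyl.{u}) (hDer : LemDer.{u}) (hT : LemT.{u}) (hX : LemX.{u}) (hB1 : LemB1.{u})
    (hB2 : LemB2.{u}) (hMA : LemMA.{u}) (hMB : LemMB.{u}) (hMC : LemMC.{u}) : LemPi.{u} := by
  intro G _ _ hG hy M E P R p r cx
  obtain ⟨H, hH, hNP, hnc, hpH, hid, hrH⟩ :=
    hMA hX hB1 hB2 hT hSyl hK0 hDer hG hy M E P R p r cx
  obtain ⟨t, Q, htM, hQt, hQ1, hQM, hRQ, hfpf, hQc, hCQ, hNQ⟩ :=
    hMB hF hG hy M E P R p r cx H hH hNP hnc hpH hid hrH
  exact hMC hT hK hSyl hDer hF0 hG hy M E P R p r cx H hH hNP hnc hpH hid hrH t Q htM hQt hQ1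
    hQM hRQ hfpf hQc hCQ hNQ

/-- Elements of `R` commute with elements of `P` when `R ≤ C(P)`; symmetric form. -/
theorem le_centralizer_symm {G : Type u} [Group G] {P R : Subgroup G}
    (h : R ≤ Subgroup.centralizer (P : Set G)) : P ≤ Subgroup.centralizer (R : Set G) := by
  intro x hx
  rw [Subgroup.mem_centralizer_iff]
  intro y hy
  have := (Subgroup.mem_centralizer_iff.mp (h hy)) x hx
  exact this.symm

/-- BG 13.4 from `LemPi`. -/
theorem s1428_of_lemPi (hPi : LemPi.{u}) {G : Type u} [Group G] [Finite G]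
    (hG : Cfsg.IsMinSimpleOddOrder G) (hy : Hy hG)
    (M : Subgroup G) (hM : IsCoatom M) (E : Subgroup G)
    (hE : Cfsg.IsComplIn E (Cfsg.sigmaCore M) M) (p : ℕ) (hp : p ∈ Cfsg.tau1 M)
    (P : Subgroup G) (hPE : P ≤ E) (hP : Nat.card P = p)
    (R : Subgroup G) (hRE : R ≤ E ⊓ Subgroup.centralizer (P : Set G)) (hR : (Nat.card R).Prime) :
    Cfsg.sigmaCore M ⊓ Subgroup.centralizer (P : Set G) ≤
      Cfsg.sigmaCore M ⊓ Subgroup.centralizer (R : Set G) := by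
  by_contra hcon
  have hne : ¬ Cfsg.sigmaCore M ⊓ Subgroup.centralizer (P : Set G) ≤
      Subgroup.centralizer (R : Set G) := fun h => hcon (le_inf inf_le_left h)
  have hRE' : R ≤ E := hRE.trans inf_le_left
  have hRP : R ≤ Subgroup.centralizer (P : Set G) := hRE.trans inf_le_right
  have cx : Cx M E P R p (Nat.card R) :=
    ⟨hM, hE, hp, hPE, hP, hRE', hRP, rfl, hR, hne⟩
  obtain ⟨h1, -, h3, h4⟩ := hPi hG hy M E P R p (Nat.card R) cx
  have cx' : Cx M E R P (Nat.card R) p :=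
    ⟨hM, hE, h1, hRE', rfl, hPE, le_centralizer_symm hRP, hP, hp.1, h3⟩
  obtain ⟨-, h2', -, -⟩ := hPi hG hy M E R P (Nat.card R) p cx'
  exact h4 h2'

end Cfsg.Agent.Lib.Helper95.BG28
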